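import Cfsg.Agent.H278.Cov.Defs
import Cfsg.Agent.H901.MinDeg
import Cfsg.Agent.PermutationGroups.PSTransOne

/-!
# S2499 (normal 2-coverings): the alternating groups of odd degree

`noTwo_alt_odd` : for odd `n ≥ 11` the group `A_n` is not the union of the conjugates of two proper subgroups.

Proof. Let `C` be an `n`-cycle, `A` an element with cycles `2, 2, n - 4` and `B` an element with cycles
`3, 5, n - 8` (`3, 7, n - 10` if `n ≡ 2` mod 3, and `3, 3, 5` if `n = 11`). A proper subgroup with a conjugate of `A`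
(of `B`) is intransitive, and an intransitive subgroup does not contain conjugates of both.
-/

set_option autoImplicit false

namespace Cfsg.Agent.H502.Cov

open Equiv Equiv.Perm MulAction
open scoped Pointwise
open Cfsg.Agent.H278.Cov

section

variable {α : Type*} [DecidableEq α] [Fintype α]

/-- `P` has the three cycles `S1`, `S2`, `S3` -/
structure Tri (P : Perm α) (S1 S2 S3 : Finset α) : Prop where
  c1 : P.IsCycleOn (S1 : Set α)
  c2 : P.IsCycleOn (S2 : Set α)
  c3 : P.IsCycleOn (S3 : Set α)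
  d12 : Disjoint S1 S2
  d13 : Disjoint S1 S3
  d23 : Disjoint S2 S3
  cov : ∀ x, x ∈ S1 ∨ x ∈ S2 ∨ x ∈ S3

theorem Tri.card {P : Perm α} {S1 S2 S3 : Finset α} (h : Tri P S1 S2 S3) :
    S1.card + S2.card + S3.card = Fintype.card α := by
  have h1 : (S1 ∪ S2) ∪ S3 = Finset.univ := by
    ext x
    have := h.cov x
    simp only [Finset.mem_union, Finset.mem_univ, iff_true]
    tauto
  rw [← Finset.card_univ, ← h1, Finset.card_union_of_disjoint, Finset.card_union_of_disjoint h.d12]
  rw [Finset.disjoint_union_left]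
  exact ⟨h.d13, h.d23⟩

omit [Fintype α] in
theorem cy_image {P : Perm α} {S : Finset α} (h : P.IsCycleOn (S : Set α)) (g : Perm α) :
    (g * P * g⁻¹).IsCycleOn ((S.image g : Finset α) : Set α) := by
  rw [Finset.coe_image]
  exact h.conj

theorem Tri.conj {P : Perm α} {S1 S2 S3 : Finset α} (h : Tri P S1 S2 S3) (g : Perm α) :
    Tri (g * P * g⁻¹) (S1.image g) (S2.image g) (S3.image g) where
  c1 := cy_image h.c1 g
  c2 := cy_image h.c2 g
  c3 := cy_image h.c3 g
  d12 := (Finset.disjoint_image g.injective).2 h.d12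
  d13 := (Finset.disjoint_image g.injective).2 h.d13
  d23 := (Finset.disjoint_image g.injective).2 h.d23
  cov := fun x => by
    have h1 : ∀ S : Finset α, g⁻¹ x ∈ S → x ∈ S.image g := fun S hS =>
      Finset.mem_image.2 ⟨g⁻¹ x, hS, by simp⟩
    rcases h.cov (g⁻¹ x) with h2 | h2 | h2
    · exact Or.inl (h1 _ h2)
    · exact Or.inr (Or.inl (h1 _ h2))
    · exact Or.inr (Or.inr (h1 _ h2))

/-! ### invariant sets -/

omit [DecidableEq α] [Fintype α] in
theorem inv_pow {P : Perm α} {D : Finset α} (hD : ∀ x ∈ D, P x ∈ D) (k : ℕ) : ∀ x ∈ D, (P ^ k) x ∈ D := by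
  induction k with
  | zero => intro x hx; simpa using hx
  | succ k ih =>
    intro x hx
    rw [pow_succ', Perm.mul_apply]
    exact hD _ (ih x hx)

omit [DecidableEq α] [Fintype α] in
theorem inv_sub {P : Perm α} {S D : Finset α} (hS : P.IsCycleOn (S : Set α)) (hD : ∀ x ∈ D, P x ∈ D)
    {x : α} (hx : x ∈ S) (hxD : x ∈ D) : S ⊆ D := by
  intro y hy
  obtain ⟨k, -, hk⟩ := hS.exists_pow_eq (Finset.mem_coe.2 hx) (Finset.mem_coe.2 hy)
  rw [← hk]
  exact inv_pow hD k x hxD

omit [Fintype α] in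
theorem inv_inter {P : Perm α} {S D : Finset α} (hS : P.IsCycleOn (S : Set α)) (hD : ∀ x ∈ D, P x ∈ D) :
    (D ∩ S).card = if S ⊆ D then S.card else 0 := by
  split_ifs with h
  · rw [Finset.inter_eq_right.2 h]
  · rw [Finset.card_eq_zero, Finset.eq_empty_iff_forall_notMem]
    intro x hx
    rw [Finset.mem_inter] at hx
    exact h (inv_sub hS hD hx.2 hx.1)

theorem inv_card {P : Perm α} {S1 S2 S3 D : Finset α} (h : Tri P S1 S2 S3) (hD : ∀ x ∈ D, P x ∈ D) :
    D.card = (if S1 ⊆ D then S1.card else 0) + (if S2 ⊆ D then S2.card else 0) +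
      (if S3 ⊆ D then S3.card else 0) := by
  rw [← inv_inter h.c1 hD, ← inv_inter h.c2 hD, ← inv_inter h.c3 hD]
  have h1 : ((D ∩ S1) ∪ (D ∩ S2)) ∪ (D ∩ S3) = D := by
    ext x
    have := h.cov x
    simp only [Finset.mem_union, Finset.mem_inter]
    tauto
  conv_lhs => rw [← h1]
  rw [Finset.card_union_of_disjoint, Finset.card_union_of_disjoint]
  · exact Finset.disjoint_of_subset_left Finset.inter_subset_right
      (Finset.disjoint_of_subset_right Finset.inter_subset_right h.d12)
  · rw [Finset.disjoint_union_left]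
    exact ⟨Finset.disjoint_of_subset_left Finset.inter_subset_right
      (Finset.disjoint_of_subset_right Finset.inter_subset_right h.d13),
      Finset.disjoint_of_subset_left Finset.inter_subset_right
      (Finset.disjoint_of_subset_right Finset.inter_subset_right h.d23)⟩

/-! ### transitivity and blocks -/

/-- `H` is transitive -/
def Tr (H : Subgroup (Perm α)) : Prop := ∀ x y : α, ∃ h ∈ H, h x = y

/-- elementary form of a block -/
def Blk (H : Subgroup (Perm α)) (B : Finset α) : Prop :=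
  ∀ h ∈ H, ∀ x ∈ B, h x ∈ B → ∀ y ∈ B, h y ∈ B

theorem exists_orbit {H : Subgroup (Perm α)} (h : ¬ Tr H) :
    ∃ D : Finset α, 0 < D.card ∧ D.card < Fintype.card α ∧ ∀ h ∈ H, ∀ x ∈ D, h x ∈ D := by
  classical
  unfold Tr at h
  push Not at h
  obtain ⟨x, y, hxy⟩ := h
  refine ⟨Finset.univ.filter (fun z => ∃ h ∈ H, h x = z), ?_, ?_, ?_⟩
  · apply Finset.card_pos.2
    exact ⟨x, by simp only [Finset.mem_filter, Finset.mem_univ, true_and]; exact ⟨1, H.one_mem, rfl⟩⟩
  · rw [← Finset.card_univ]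
    apply Finset.card_lt_card
    rw [Finset.ssubset_univ_iff]
    intro hc
    have : y ∈ Finset.univ.filter (fun z => ∃ h ∈ H, h x = z) := by rw [hc]; exact Finset.mem_univ _
    simp only [Finset.mem_filter, Finset.mem_univ, true_and] at this
    obtain ⟨h, hh, hx⟩ := this
    exact hxy h hh hx
  · intro h hh z hz
    simp only [Finset.mem_filter, Finset.mem_univ, true_and] at hz ⊢
    obtain ⟨k, hk, hkz⟩ := hz
    exact ⟨h * k, H.mul_mem hh hk, by rw [Perm.mul_apply, hkz]⟩

theorem prim_of {H : Subgroup (Perm α)} (ht : Tr H) (a : α)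
    (hb : ∀ B : Finset α, a ∈ B → Blk H B → B.card ∣ Fintype.card α → B.card = 1 ∨ B.card = Fintype.card α) :
    IsPreprimitive H α := by
  classical
  haveI : IsPretransitive H α := ⟨fun x y => by
    obtain ⟨h, hh, hxy⟩ := ht x y
    exact ⟨⟨h, hh⟩, hxy⟩⟩
  apply IsPreprimitive.of_isTrivialBlock_base a
  intro B haB hB
  have h1 : Blk H B.toFinset := by
    intro h hh x hx hhx y hy
    rw [Set.mem_toFinset] at hx hhx hy ⊢
    have h2 : (⟨h, hh⟩ : H) • B = B := by
      apply hB.smul_eq_of_nonempty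
      exact ⟨h x, ⟨x, hx, rfl⟩, hhx⟩
    rw [← h2]
    exact ⟨y, hy, rfl⟩
  have h2 : B.toFinset.card ∣ Fintype.card α := by
    have := hB.ncard_dvd_card ⟨a, haB⟩
    rwa [Set.ncard_eq_toFinset_card', Nat.card_eq_fintype_card] at this
  rcases hb B.toFinset (by simpa using haB) h1 h2 with h3 | h3
  · left
    rw [Finset.card_eq_one] at h3
    obtain ⟨z, hz⟩ := h3
    intro x hx y hy
    have hx' : x ∈ B.toFinset := by simpa using hx
    have hy' : y ∈ B.toFinset := by simpa using hy
    rw [hz, Finset.mem_singleton] at hx' hy'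
    rw [hx', hy']
  · right
    have h4 : B.toFinset = Finset.univ := Finset.card_eq_iff_eq_univ _ |>.1 h3
    rw [Set.eq_univ_iff_forall]
    intro x
    rw [← Set.mem_toFinset, h4]
    exact Finset.mem_univ _

/-- the translate of a block through a given point -/
theorem Blk.translate {H : Subgroup (Perm α)} (ht : Tr H) {B : Finset α} (hB : Blk H B) {x : α} (hx : x ∈ B)
    (y : α) : ∃ B' : Finset α, y ∈ B' ∧ Blk H B' ∧ B'.card = B.card ∧ ∀ z ∈ B, z ∈ B' → B' = B := by
  obtain ⟨g, hg, hgx⟩ := ht x y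
  refine ⟨B.image g, Finset.mem_image.2 ⟨x, hx, hgx⟩, ?_, Finset.card_image_of_injective _ g.injective, ?_⟩
  · intro h hh u hu hhu v hv
    obtain ⟨u', hu', rfl⟩ := Finset.mem_image.1 hu
    obtain ⟨v', hv', rfl⟩ := Finset.mem_image.1 hv
    obtain ⟨w, hw, hw'⟩ := Finset.mem_image.1 hhu
    have h1 : (g⁻¹ * h * g) u' ∈ B := by
      rw [Perm.mul_apply, Perm.mul_apply, ← hw']
      simpa using hw
    have h2 := hB _ (H.mul_mem (H.mul_mem (H.inv_mem hg) hh) hg) u' hu' h1 v' hv'
    refine Finset.mem_image.2 ⟨_, h2, ?_⟩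
    rw [Perm.mul_apply, Perm.mul_apply]
    simp
  · intro z hz hz'
    obtain ⟨w, hw, hw'⟩ := Finset.mem_image.1 hz'
    apply Finset.eq_of_subset_of_card_le
    · intro u hu
      obtain ⟨v, hv, rfl⟩ := Finset.mem_image.1 hu
      exact hB g hg w hw (by rw [hw']; exact hz) v hv
    · rw [Finset.card_image_of_injective _ g.injective]

/-! ### powers of a cycle -/

omit [DecidableEq α] [Fintype α] in
theorem cy_pow_fix {P : Perm α} {S : Finset α} (h : P.IsCycleOn (S : Set α)) {x : α} (hx : x ∈ S) {m : ℕ} :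
    (P ^ m) x = x ↔ S.card ∣ m := h.pow_apply_eq hx

/-- `n` odd, cycles `2, 2, n - 4`: a transitive overgroup is primitive -/
theorem prim_A {H : Subgroup (Perm α)} (ht : Tr H) {P : Perm α} (hP : P ∈ H) {S1 S2 S3 : Finset α}
    (h : Tri P S1 S2 S3) (h1 : S1.card = 2) (h2 : S2.card = 2) (hn : 11 ≤ Fintype.card α)
    (ho : Odd (Fintype.card α)) : IsPreprimitive H α := by
  obtain ⟨a, ha⟩ : S1.Nonempty := Finset.card_pos.1 (by omega)
  have hc := h.card
  have hP2 : P ^ 2 ∈ H := H.pow_mem hP 2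
  have hf1 : ∀ x, x ∈ S1 → (P ^ 2) x = x := fun x hx => (cy_pow_fix h.c1 hx).2 (by rw [h1])
  have hf2 : ∀ x, x ∈ S2 → (P ^ 2) x = x := fun x hx => (cy_pow_fix h.c2 hx).2 (by rw [h2])
  -- a set invariant under `P ^ 2` and meeting `S3` contains it
  have h3 : ∀ D : Finset α, (∀ x ∈ D, (P ^ 2) x ∈ D) → ∀ x ∈ D, x ∈ S3 → S3 ⊆ D := by
    intro D hD x hx hx3 y hy
    obtain ⟨k, -, hk⟩ := h.c3.exists_pow_eq (Finset.mem_coe.2 hx3) (Finset.mem_coe.2 hy)
    rcases Nat.even_or_odd k with ⟨m, hm⟩ | hk2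
    · rw [← hk, hm, ← two_mul, pow_mul]
      exact inv_pow hD m x hx
    · have h4 : Odd S3.card := by
        rw [← hc, h1, h2] at ho
        rcases Nat.even_or_odd S3.card with h5 | h5
        · exfalso
          rw [← Nat.not_even_iff_odd] at ho
          exact ho (by rw [Nat.even_add]; exact ⟨fun _ => h5, fun _ => by decide⟩)
        · exact h5
      obtain ⟨m, hm⟩ := hk2.add_odd h4
      have h5 : (P ^ (k + S3.card)) x = y := by
        rw [pow_add, Perm.mul_apply, h.c3.pow_card_apply hx3, hk]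
      rw [← h5, hm, ← two_mul, pow_mul]
      exact inv_pow hD m x hx
  -- a block through a point fixed by `P ^ 2` and of size less than `n - 4`
  have h4 : ∀ B : Finset α, Blk H B → ∀ x ∈ B, x ∉ S3 → B.card < S3.card → B ⊆ S1 ∪ S2 := by
    intro B hB x hx hx3 hlt y hy
    have hfx : (P ^ 2) x = x := by
      rcases h.cov x with h5 | h5 | h5
      · exact hf1 x h5
      · exact hf2 x h5
      · exact absurd h5 hx3
    have hD : ∀ x ∈ B, (P ^ 2) x ∈ B := hB _ hP2 x hx (by rw [hfx]; exact hx)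
    rcases h.cov y with h5 | h5 | h5
    · exact Finset.mem_union_left _ h5
    · exact Finset.mem_union_right _ h5
    · have := Finset.card_le_card (h3 B hD y hy h5)
      omega
  have ha3 : a ∉ S3 := Finset.disjoint_left.1 h.d13 ha
  apply prim_of ht a
  intro B haB hB hdvd
  by_cases hlt : B.card < S3.card
  · have h5 := h4 B hB a haB ha3 hlt
    have h6 := Finset.card_le_card h5
    rw [Finset.card_union_of_disjoint h.d12, h1, h2] at h6
    have h7 : Odd B.card := Odd.of_dvd_nat ho hdvd
    by_cases h8 : B.card = 1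
    · exact Or.inl h8
    · exfalso
      have h9 : B.card = 3 := by
        obtain ⟨k, hk⟩ := h7
        omega
      -- the fourth point
      obtain ⟨z, hz, hzB⟩ : ∃ z ∈ S1 ∪ S2, z ∉ B := by
        by_contra hcon
        push Not at hcon
        have := Finset.card_le_card (fun z hz => hcon z hz : S1 ∪ S2 ⊆ B)
        rw [Finset.card_union_of_disjoint h.d12, h1, h2] at this
        omega
      obtain ⟨B', hzB', hB', hcard, hov⟩ := hB.translate ht haB z
      have hz3 : z ∉ S3 := by
        rcases Finset.mem_union.1 hz with h10 | h10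
        · exact Finset.disjoint_left.1 h.d13 h10
        · exact Finset.disjoint_left.1 h.d23 h10
      have h10 := h4 B' hB' z hzB' hz3 (by omega)
      have h11 : ¬ Disjoint B B' := by
        intro hd
        have h12 := Finset.card_le_card (Finset.union_subset h5 h10)
        rw [Finset.card_union_of_disjoint hd, Finset.card_union_of_disjoint h.d12, h1, h2] at h12
        omega
      rw [Finset.not_disjoint_iff] at h11
      obtain ⟨w, hw, hw'⟩ := h11
      rw [hov w hw hw'] at hzB'
      exact hzB hzB'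
  · right
    obtain ⟨k, hk⟩ := hdvd
    have h5 : k < 2 := by
      by_contra hcon
      have := Nat.mul_le_mul_left B.card (show 2 ≤ k by omega)
      omega
    interval_cases k <;> omega

/-- **`n` odd, cycles `2, 2, n - 4`**: a transitive overgroup contains the alternating group -/
theorem alt_le_A {H : Subgroup (Perm α)} (ht : Tr H) {P : Perm α} (hP : P ∈ H) {S1 S2 S3 : Finset α}
    (h : Tri P S1 S2 S3) (h1 : S1.card = 2) (h2 : S2.card = 2) (hn : 11 ≤ Fintype.card α)
    (ho : Odd (Fintype.card α)) : alternatingGroup α ≤ H := by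
  by_contra hA
  have hprim := prim_A ht hP h h1 h2 hn ho
  have hc := h.card
  have ho3 : Odd S3.card := by
    rw [← hc, h1, h2] at ho
    rcases Nat.even_or_odd S3.card with h5 | h5
    · exfalso
      rw [← Nat.not_even_iff_odd] at ho
      exact ho (by rw [Nat.even_add]; exact ⟨fun _ => h5, fun _ => by decide⟩)
    · exact h5
  have hP2 : P ^ 2 ∈ H := H.pow_mem hP 2
  have hf1 : ∀ x, x ∈ S1 → (P ^ 2) x = x := fun x hx => (cy_pow_fix h.c1 hx).2 (by rw [h1])
  have hf2 : ∀ x, x ∈ S2 → (P ^ 2) x = x := fun x hx => (cy_pow_fix h.c2 hx).2 (by rw [h2])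
  have h2t : IsMultiplyPretransitive H α 2 := by
    apply hprim.is_two_pretransitive (s := ((S1 ∪ S2 : Finset α) : Set α)) (n := 3)
    · rw [Set.ncard_coe_finset, Finset.card_union_of_disjoint h.d12, h1, h2]
    · rw [Nat.card_eq_fintype_card]
      omega
    · refine ⟨fun x y => ?_⟩
      have hx := x.2
      have hy := y.2
      rw [SubMulAction.mem_ofFixingSubgroup_iff, Finset.mem_coe, Finset.mem_union, not_or] at hx hy
      have hx3 : (x : α) ∈ S3 := by
        have := h.cov x
        tauto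
      have hy3 : (y : α) ∈ S3 := by
        have := h.cov y
        tauto
      obtain ⟨m, hm⟩ : ∃ m : ℕ, ((P ^ 2) ^ m) (x : α) = y := by
        obtain ⟨k, -, hk⟩ := h.c3.exists_pow_eq (Finset.mem_coe.2 hx3) (Finset.mem_coe.2 hy3)
        rcases Nat.even_or_odd k with ⟨m, hm⟩ | hk2
        · exact ⟨m, by rw [← pow_mul, two_mul, ← hm, hk]⟩
        · obtain ⟨m, hm⟩ := hk2.add_odd ho3
          refine ⟨m, ?_⟩
          rw [← pow_mul, two_mul, ← hm, pow_add, Perm.mul_apply, h.c3.pow_card_apply hx3, hk]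
      have hfix : (⟨(P ^ 2) ^ m, H.pow_mem hP2 m⟩ : H) ∈ fixingSubgroup H ((S1 ∪ S2 : Finset α) : Set α) := by
        rw [mem_fixingSubgroup_iff]
        intro z hz
        change ((P ^ 2) ^ m) z = z
        rw [Finset.mem_coe, Finset.mem_union] at hz
        have h5 : (P ^ 2) z = z := by
          rcases hz with h6 | h6
          · exact hf1 z h6
          · exact hf2 z h6
        exact Perm.pow_apply_eq_self_of_apply_eq_self h5 m
      exact ⟨⟨_, hfix⟩, Subtype.ext hm⟩
  set t : Perm α := P ^ S3.card with ht'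
  have hsupp : t.support ⊆ S1 ∪ S2 := by
    intro x hx
    rw [Perm.mem_support] at hx
    rcases h.cov x with h5 | h5 | h5
    · exact Finset.mem_union_left _ h5
    · exact Finset.mem_union_right _ h5
    · exact absurd ((cy_pow_fix h.c3 h5).2 (dvd_refl _)) hx
  have ht1 : t ≠ 1 := by
    intro hcon
    obtain ⟨a, ha⟩ : S1.Nonempty := Finset.card_pos.1 (by omega)
    have h5 : t a = a := by rw [hcon]; rfl
    rw [ht', cy_pow_fix h.c1 ha, h1] at h5
    rw [← Nat.not_even_iff_odd] at ho3
    exact ho3 (even_iff_two_dvd.2 h5)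
  have h5 := Cfsg.Agent.H901.MinDeg.min_degree H h2t (by omega) hA t (H.pow_mem hP _) ht1
  have h6 := Finset.card_le_card hsupp
  rw [Finset.card_union_of_disjoint h.d12, h1, h2] at h6
  have h7 : (t.support.card - 1) ^ 2 ≤ 3 ^ 2 := Nat.pow_le_pow_left (by omega) 2
  omega

/-! ### cycles `3, k, l` -/

/-- cycles `3, k, l` with `k`, `l` odd and prime to `3`: a transitive overgroup is primitive -/
theorem prim_B {H : Subgroup (Perm α)} (ht : Tr H) {P : Perm α} (hP : P ∈ H) {S1 S2 S3 : Finset α}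
    (h : Tri P S1 S2 S3) (h1 : S1.card = 3) (hk : Odd S2.card) (hl : Odd S3.card) (hk3 : ¬ 3 ∣ S2.card)
    (hl3 : ¬ 3 ∣ S3.card) (h3 : 3 ∣ Fintype.card α → S2.card = 5 ∧ 7 ≤ S3.card) : IsPreprimitive H α := by
  obtain ⟨a, ha⟩ : S1.Nonempty := Finset.card_pos.1 (by omega)
  have hc := h.card
  have ho : Odd (Fintype.card α) := by
    rw [← hc, h1]
    obtain ⟨u, hu⟩ := hk
    obtain ⟨v, hv⟩ := hl
    exact ⟨u + v + 2, by omega⟩
  set t : Perm α := P ^ (S2.card * S3.card) with ht'
  have htH : t ∈ H := H.pow_mem hP _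
  have hf2 : ∀ x ∈ S2, t x = x := fun x hx => (cy_pow_fix h.c2 hx).2 (dvd_mul_right _ _)
  have hf3 : ∀ x ∈ S3, t x = x := fun x hx => (cy_pow_fix h.c3 hx).2 (dvd_mul_left _ _)
  have hsq : ∀ j : ℕ, j ≡ S2.card * S3.card * (j * (S2.card * S3.card)) [MOD 3] := by
    intro j
    have h5 : S2.card % 3 = 1 ∨ S2.card % 3 = 2 := by omega
    have h6 : S3.card % 3 = 1 ∨ S3.card % 3 = 2 := by omega
    have h7 : (S2.card * S3.card) * (S2.card * S3.card) ≡ 1 [MOD 3] := by
      unfold Nat.ModEq
      rw [Nat.mul_mod, Nat.mul_mod S2.card]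
      rcases h5 with h5 | h5 <;> rcases h6 with h6 | h6 <;> simp [h5, h6]
    have h8 := (Nat.ModEq.mul_left j h7).symm
    rw [mul_one] at h8
    refine h8.trans ?_
    rw [show S2.card * S3.card * (j * (S2.card * S3.card)) = j * (S2.card * S3.card * (S2.card * S3.card)) by ring]
  have hsub : ∀ D : Finset α, (∀ x ∈ D, t x ∈ D) → ∀ x ∈ D, x ∈ S1 → S1 ⊆ D := by
    intro D hD x hx hx1 y hy
    obtain ⟨j, -, hj⟩ := h.c1.exists_pow_eq (Finset.mem_coe.2 hx1) (Finset.mem_coe.2 hy)
    have h6 : j ≡ S2.card * S3.card * (j * (S2.card * S3.card)) [MOD S1.card] := by rw [h1]; exact hsq j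
    have h5 := (h.c1.pow_apply_eq_pow_apply hx1).2 h6
    rw [← hj, h5, pow_mul]
    exact inv_pow hD _ x hx
  have hPS : ∀ x ∈ S1, P x ∈ S1 := fun x hx => by
    have := h.c1.1.mapsTo hx
    exact this
  -- the possible sizes of a block through a point of `S1`
  have key : ∀ B : Finset α, a ∈ B → Blk H B → B.card ∣ Fintype.card α →
      B.card = 1 ∨ B.card = Fintype.card α ∨ B = S1 := by
    intro B haB hB hdvd
    have hBo : Odd B.card := Odd.of_dvd_nat ho hdvd
    by_cases hta : t a ∈ B
    · right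
      have h5 := hsub B (hB t htH a haB hta) a haB ha
      have h6 := inv_card h (hB P hP a haB (h5 (hPS a ha)))
      rw [if_pos h5, h1] at h6
      obtain ⟨w, hw⟩ := hBo
      obtain ⟨u, hu⟩ := hk
      obtain ⟨v, hv⟩ := hl
      split_ifs at h6
      · left; omega
      · exfalso; omega
      · exfalso; omega
      · right
        exact (Finset.eq_of_subset_of_card_le h5 (by omega)).symm
    · left
      have h5 : B ⊆ S1.erase (t a) := by
        intro y hy
        rw [Finset.mem_erase]
        refine ⟨fun hc => hta (hc ▸ hy), ?_⟩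
        rcases h.cov y with h6 | h6 | h6
        · exact h6
        · exact absurd (hB t htH y hy (by rw [hf2 y h6]; exact hy) a haB) hta
        · exact absurd (hB t htH y hy (by rw [hf3 y h6]; exact hy) a haB) hta
      have h6 := Finset.card_le_card h5
      rw [Finset.card_erase_of_mem (inv_pow hPS _ a ha), h1] at h6
      obtain ⟨w, hw⟩ := hBo
      omega
  apply prim_of ht a
  intro B haB hB hdvd
  rcases key B haB hB hdvd with h5 | h5 | h5
  · exact Or.inl h5
  · exact Or.inr h5
  exfalso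
  obtain ⟨hk5, hl7⟩ := h3 (by rw [← h1, ← h5]; exact hdvd)
  obtain ⟨y, hy⟩ : S2.Nonempty := Finset.card_pos.1 (by omega)
  obtain ⟨B', hyB', hB', hcard, hov⟩ := hB.translate ht haB y
  rw [h5, h1] at hcard
  have hdis : ∀ z ∈ B', z ∉ S1 := by
    intro z hz hz1
    have h6 := hov z (by rw [h5]; exact hz1) hz
    rw [h6, h5] at hyB'
    exact Finset.disjoint_left.1 h.d12 hyB' hy
  have hy5 : (P ^ 5) y = y := (cy_pow_fix h.c2 hy).2 (by rw [hk5])
  have hinv5 : ∀ z ∈ B', (P ^ 5) z ∈ B' := hB' _ (H.pow_mem hP 5) y hyB' (by rw [hy5]; exact hyB')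
  -- no other point of the `5`-cycle
  have honly : ∀ z ∈ B', z ∈ S2 → z = y := by
    intro z hz hz2
    by_contra hne
    obtain ⟨j, hj5, hj⟩ := h.c2.exists_pow_eq (Finset.mem_coe.2 hy) (Finset.mem_coe.2 hz2)
    rw [hk5] at hj5
    have hj0 : j ≠ 0 := by
      rintro rfl
      exact hne (by simpa using hj.symm)
    have hinvj : ∀ w ∈ B', (P ^ j) w ∈ B' := hB' _ (H.pow_mem hP j) y hyB' (by rw [hj]; exact hz)
    have h6 : S2 ⊆ B' := by
      intro w hw
      obtain ⟨i, -, hi⟩ := h.c2.exists_pow_eq (Finset.mem_coe.2 hy) (Finset.mem_coe.2 hw)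
      have h7 : i ≡ j * (i * j ^ 3) [MOD 5] := by
        have h8 : j ^ 4 ≡ 1 [MOD 5] := by
          unfold Nat.ModEq
          interval_cases j <;> first | rfl | omega
        have h9 := (Nat.ModEq.mul_left i h8).symm
        rw [mul_one] at h9
        refine h9.trans ?_
        rw [show j * (i * j ^ 3) = i * j ^ 4 by ring]
      have h9 : i ≡ j * (i * j ^ 3) [MOD S2.card] := by rw [hk5]; exact h7
      have h8 := (h.c2.pow_apply_eq_pow_apply hy).2 h9
      rw [← hi, h8, pow_mul]
      exact inv_pow hinvj _ y hyB'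
    have := Finset.card_le_card h6
    omega
  -- the other two points
  have hW : (B'.erase y).card = 2 := by rw [Finset.card_erase_of_mem hyB', hcard]
  have hW3 : ∀ z ∈ B'.erase y, z ∈ S3 := by
    intro z hz
    rw [Finset.mem_erase] at hz
    rcases h.cov z with h6 | h6 | h6
    · exact absurd h6 (hdis z hz.2)
    · exact absurd (honly z hz.2 h6) hz.1
    · exact h6
  have hW5 : ∀ z ∈ B'.erase y, (P ^ 5) z ∈ B'.erase y := by
    intro z hz
    rw [Finset.mem_erase] at hz ⊢
    refine ⟨fun hc => hz.1 ?_, hinv5 z hz.2⟩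
    rw [← hy5] at hc
    exact (P ^ 5).injective hc
  obtain ⟨u, v, huv, hWe⟩ := Finset.card_eq_two.1 hW
  have hu : u ∈ B'.erase y := by rw [hWe]; simp
  have hv : v ∈ B'.erase y := by rw [hWe]; simp
  have h10 : (P ^ 10) u = u := by
    rw [show (10 : ℕ) = 5 + 5 from rfl, pow_add, Perm.mul_apply]
    have h6 := hW5 u hu
    have h7 := hW5 v hv
    rw [hWe, Finset.mem_insert, Finset.mem_singleton] at h6 h7
    rcases h6 with h6 | h6
    · rw [h6, h6]
    · rw [h6]
      rcases h7 with h7 | h7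
      · exact h7
      · exact absurd ((P ^ 5).injective (h6.trans h7.symm)) huv
  rw [cy_pow_fix h.c3 (hW3 u hu)] at h10
  have h11 := Nat.le_of_dvd (by norm_num) h10
  obtain ⟨w, hw⟩ := hl
  have h12 : S3.card = 7 ∨ S3.card = 9 := by omega
  rcases h12 with h12 | h12 <;> rw [h12] at h10 <;> revert h10 <;> decide

/-- **cycles `3, k, l`**, `k`, `l` odd and prime to `3` -/
theorem alt_le_B {H : Subgroup (Perm α)} (ht : Tr H) {P : Perm α} (hP : P ∈ H) {S1 S2 S3 : Finset α}
    (h : Tri P S1 S2 S3) (h1 : S1.card = 3) (hk : Odd S2.card) (hl : Odd S3.card) (hk3 : ¬ 3 ∣ S2.card)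
    (hl3 : ¬ 3 ∣ S3.card) (h3 : 3 ∣ Fintype.card α → S2.card = 5 ∧ 7 ≤ S3.card) : alternatingGroup α ≤ H := by
  by_contra hA
  have hprim := prim_B ht hP h h1 hk hl hk3 hl3 h3
  set t : Perm α := P ^ (S2.card * S3.card) with ht'
  have htH : t ∈ H := H.pow_mem hP _
  have hsupp : t.support ⊆ S1 := by
    intro x hx
    rw [Perm.mem_support] at hx
    rcases h.cov x with h5 | h5 | h5
    · exact h5
    · exact absurd ((cy_pow_fix h.c2 h5).2 (dvd_mul_right _ _)) hx
    · exact absurd ((cy_pow_fix h.c3 h5).2 (dvd_mul_left _ _)) hx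
  have ht1 : t ≠ 1 := by
    intro hcon
    obtain ⟨a, ha⟩ : S1.Nonempty := Finset.card_pos.1 (by omega)
    have h5 : t a = a := by rw [hcon]; rfl
    rw [ht', cy_pow_fix h.c1 ha, h1, Nat.prime_three.dvd_mul] at h5
    tauto
  have h5 := Cfsg.Agent.H901.MinDeg.three_lt_support H hprim hA t htH ht1
  have h6 := Finset.card_le_card hsupp
  omega

/-- **degree `11`, cycles `3, 3, 5`** -/
theorem alt_le_D {H : Subgroup (Perm α)} (ht : Tr H) {P : Perm α} (hP : P ∈ H) {S1 S2 S3 : Finset α}
    (h : Tri P S1 S2 S3) (h1 : S1.card = 3) (h2 : S2.card = 3) (h3 : S3.card = 5) : alternatingGroup α ≤ H := by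
  have hc := h.card
  rw [h1, h2, h3] at hc
  obtain ⟨a, ha⟩ : S3.Nonempty := Finset.card_pos.1 (by omega)
  have hprim : IsPreprimitive H α := by
    apply prim_of ht a
    intro B haB hB hdvd
    rw [← hc] at hdvd ⊢
    exact (Nat.dvd_prime (by norm_num)).1 hdvd
  have hsupp : (P ^ 3).support ⊆ S3 := by
    intro x hx
    rw [Perm.mem_support] at hx
    rcases h.cov x with h5 | h5 | h5
    · exact absurd ((cy_pow_fix h.c1 h5).2 (by rw [h1])) hx
    · exact absurd ((cy_pow_fix h.c2 h5).2 (by rw [h2])) hx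
    · exact h5
  have ho : orderOf (P ^ 3) = 5 := by
    haveI : Fact (Nat.Prime 5) := ⟨by norm_num⟩
    apply orderOf_eq_prime
    · ext x
      rw [← pow_mul, Perm.one_apply]
      rcases h.cov x with h5 | h5 | h5
      · rw [(cy_pow_fix h.c1 h5).2 (by rw [h1]; norm_num)]
      · rw [(cy_pow_fix h.c2 h5).2 (by rw [h2]; norm_num)]
      · rw [(cy_pow_fix h.c3 h5).2 (by rw [h3]; norm_num)]
    · intro hcon
      have h5 : (P ^ 3) a = a := by rw [hcon]; rfl
      rw [cy_pow_fix h.c3 ha, h3] at h5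
      revert h5
      decide
  have h6 := Finset.card_le_card hsupp
  exact Cfsg.Agent.PermutationGroups.PSTransOne.alternating_le_of_small_support H hprim (p := 5) (by norm_num)
    le_rfl (by omega) (H.pow_mem hP 3) ho (by omega)

/-! ### construction of the elements -/

omit [DecidableEq α] [Fintype α] in
theorem cy_congr {f g : Perm α} {S : Finset α} (hg : g.IsCycleOn (S : Set α)) (h : ∀ x ∈ S, f x = g x) :
    f.IsCycleOn (S : Set α) := by
  have hm : ∀ x ∈ S, g x ∈ S := fun x hx => hg.1.mapsTo hx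
  have hp : ∀ (k : ℕ), ∀ x ∈ S, (f ^ k) x = (g ^ k) x := by
    intro k
    induction k with
    | zero => intro x _; rfl
    | succ k ih =>
      intro x hx
      rw [pow_succ', pow_succ', Perm.mul_apply, Perm.mul_apply, ih x hx]
      exact h _ (inv_pow hm k x hx)
  refine ⟨hg.1.congr fun x hx => (h x hx).symm, fun x hx y hy => ?_⟩
  obtain ⟨k, -, hk⟩ := hg.exists_pow_eq hx hy
  refine ⟨k, ?_⟩
  rw [zpow_natCast, hp k x hx, hk]

theorem cy_sign {f : Perm α} {S : Finset α} (hf : f.IsCycleOn (S : Set α)) (hs : f.support ⊆ S)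
    (h2 : 2 ≤ S.card) : sign f = -(-1) ^ S.card := by
  have hnt : (S : Set α).Nontrivial := by
    have h3 : S.Nontrivial := Finset.one_lt_card_iff_nontrivial.1 (by omega)
    exact h3
  have hcy : f.IsCycle := by
    rw [isCycle_iff_exists_isCycleOn]
    refine ⟨S, hnt, hf, fun x hx => ?_⟩
    apply hs
    rw [Perm.mem_support]
    exact hx
  have he : f.support = S := by
    apply Finset.Subset.antisymm hs
    intro x hx
    rw [Perm.mem_support]
    exact hf.apply_ne hnt hx
  rw [hcy.sign, he]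

theorem exists_tri {a b c : ℕ} (h : a + b + c = Fintype.card α) (ha : 2 ≤ a) (hb : 2 ≤ b) (hc : 2 ≤ c)
    (ho : Odd (Fintype.card α)) : ∃ (P : Perm α) (S1 S2 S3 : Finset α), P ∈ alternatingGroup α ∧
      Tri P S1 S2 S3 ∧ S1.card = a ∧ S2.card = b ∧ S3.card = c := by
  obtain ⟨S1, -, h1⟩ := Finset.exists_subset_card_eq (s := (Finset.univ : Finset α)) (n := a)
    (by rw [Finset.card_univ]; omega)
  obtain ⟨S2, hS2, h2⟩ := Finset.exists_subset_card_eq (s := S1ᶜ) (n := b)
    (by rw [Finset.card_compl]; omega)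
  have d12 : Disjoint S1 S2 := by
    rw [Finset.disjoint_left]
    intro x hx hx2
    exact (Finset.mem_compl.1 (hS2 hx2)) hx
  set S3 : Finset α := (S1 ∪ S2)ᶜ with hS3
  have h3 : S3.card = c := by
    rw [hS3, Finset.card_compl, Finset.card_union_of_disjoint d12]
    omega
  have d13 : Disjoint S1 S3 := by
    rw [Finset.disjoint_left]
    intro x hx hx2
    rw [hS3, Finset.mem_compl] at hx2
    exact hx2 (Finset.mem_union_left _ hx)
  have d23 : Disjoint S2 S3 := by
    rw [Finset.disjoint_left]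
    intro x hx hx2
    rw [hS3, Finset.mem_compl] at hx2
    exact hx2 (Finset.mem_union_right _ hx)
  obtain ⟨f1, hf1, hs1⟩ := S1.exists_cycleOn
  obtain ⟨f2, hf2, hs2⟩ := S2.exists_cycleOn
  obtain ⟨f3, hf3, hs3⟩ := S3.exists_cycleOn
  have hfix : ∀ {f : Perm α} {S T : Finset α}, f.support ⊆ S → Disjoint T S → ∀ x ∈ T, f x = x := by
    intro f S T hs hd x hx
    by_contra hc
    exact Finset.disjoint_left.1 hd hx (hs (Perm.mem_support.2 hc))
  refine ⟨f1 * f2 * f3, S1, S2, S3, ?_, ⟨?_, ?_, ?_, d12, d13, d23, ?_⟩, h1, h2, h3⟩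
  · rw [mem_alternatingGroup, map_mul, map_mul, cy_sign hf1 hs1 (by omega), cy_sign hf2 hs2 (by omega),
      cy_sign hf3 hs3 (by omega), h1, h2, h3]
    have h4 : (-(-1) ^ a * -(-1) ^ b * -(-1) ^ c : ℤˣ) = - (-1) ^ (a + b + c) := by
      rw [pow_add, pow_add]
      simp [mul_comm, mul_left_comm]
    rw [h4, h, ho.neg_one_pow, neg_neg]
  · apply cy_congr hf1
    intro x hx
    rw [Perm.mul_apply, Perm.mul_apply, hfix hs3 d13 x hx, hfix hs2 d12 x hx]
  · apply cy_congr hf2
    intro x hx
    rw [Perm.mul_apply, Perm.mul_apply, hfix hs3 d23 x hx]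
    exact hfix hs1 d12.symm _ (hf2.1.mapsTo hx)
  · apply cy_congr hf3
    intro x hx
    rw [Perm.mul_apply, Perm.mul_apply]
    have h5 : f3 x ∈ S3 := hf3.1.mapsTo hx
    rw [hfix hs2 d23.symm _ h5, hfix hs1 d13.symm _ h5]
  · intro x
    by_cases h5 : x ∈ S1
    · exact Or.inl h5
    · by_cases h6 : x ∈ S2
      · exact Or.inr (Or.inl h6)
      · refine Or.inr (Or.inr ?_)
        rw [hS3, Finset.mem_compl, Finset.mem_union]
        tauto

theorem exists_ncycle (ho : Odd (Fintype.card α)) (hn : 2 ≤ Fintype.card α) :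
    ∃ P : Perm α, P ∈ alternatingGroup α ∧ P.IsCycleOn ((Finset.univ : Finset α) : Set α) := by
  obtain ⟨f, hf, hs⟩ := (Finset.univ : Finset α).exists_cycleOn
  refine ⟨f, ?_, hf⟩
  rw [mem_alternatingGroup, cy_sign hf hs (by rw [Finset.card_univ]; exact hn), Finset.card_univ, ho.neg_one_pow,
    neg_neg]

/-! ### the theorem -/

theorem eq_top_of_le {L : Subgroup ↥(alternatingGroup α)}
    (h : alternatingGroup α ≤ L.map (alternatingGroup α).subtype) : L = ⊤ := by
  rw [eq_top_iff]
  intro x _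
  obtain ⟨y, hy, hxy⟩ := h x.2
  have : y = x := Subtype.ext hxy
  rwa [← this]

theorem exists_conj {L : Subgroup ↥(alternatingGroup α)} {x : ↥(alternatingGroup α)} (h : ¬ Av x L) :
    ∃ g : Perm α, g * x * g⁻¹ ∈ L.map (alternatingGroup α).subtype := by
  obtain ⟨g, hg⟩ := not_av h
  exact ⟨g, _, hg, rfl⟩

theorem main (hn : 11 ≤ Fintype.card α) (ho : Odd (Fintype.card α)) : NoTwo ↥(alternatingGroup α) := by
  obtain ⟨C, hCa, hC⟩ := exists_ncycle ho (by omega)
  obtain ⟨A, A1, A2, A3, hAa, hA, hA1, hA2, hA3⟩ := exists_tri (α := α) (a := 2) (b := 2)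
    (c := Fintype.card α - 4) (by omega) le_rfl le_rfl (by omega) ho
  -- the third element
  obtain ⟨b1, b2, b3, B, B1, B2, B3, hBa, hB, hB1, hB2, hB3, hb, hBtop⟩ : ∃ (b1 b2 b3 : ℕ) (B : Perm α)
      (B1 B2 B3 : Finset α), B ∈ alternatingGroup α ∧ Tri B B1 B2 B3 ∧ B1.card = b1 ∧ B2.card = b2 ∧ B3.card = b3 ∧
      (b1 = 3 ∧ b2 = 5 ∧ b3 + 8 = Fintype.card α ∧ 13 ≤ Fintype.card α ∨
        b1 = 3 ∧ b2 = 7 ∧ b3 + 10 = Fintype.card α ∧ 17 ≤ Fintype.card α ∨
        b1 = 3 ∧ b2 = 3 ∧ b3 = 5 ∧ Fintype.card α = 11) ∧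
      (∀ L : Subgroup ↥(alternatingGroup α), L ≠ ⊤ → ∀ g : Perm α,
        g * B * g⁻¹ ∈ L.map (alternatingGroup α).subtype → ¬ Tr (L.map (alternatingGroup α).subtype)) := by
    have ho' := ho
    obtain ⟨w, hw⟩ := ho'
    by_cases h11 : Fintype.card α = 11
    · obtain ⟨B, B1, B2, B3, hBa, hB, hB1, hB2, hB3⟩ := exists_tri (α := α) (a := 3) (b := 3)
        (c := 5) (by omega) (by omega) (by omega) (by omega) ho
      refine ⟨3, 3, 5, B, B1, B2, B3, hBa, hB, hB1, hB2, hB3, Or.inr (Or.inr ⟨rfl, rfl, rfl, h11⟩), ?_⟩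
      intro L hL g hg ht
      apply hL
      apply eq_top_of_le
      apply alt_le_D ht hg (hB.conj g)
      · rw [Finset.card_image_of_injective _ g.injective, hB1]
      · rw [Finset.card_image_of_injective _ g.injective, hB2]
      · rw [Finset.card_image_of_injective _ g.injective, hB3]
    · by_cases h3 : Fintype.card α % 3 = 2
      · obtain ⟨B, B1, B2, B3, hBa, hB, hB1, hB2, hB3⟩ := exists_tri (α := α) (a := 3) (b := 7)
          (c := Fintype.card α - 10) (by omega) (by omega) (by omega) (by omega) ho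
        refine ⟨3, 7, Fintype.card α - 10, B, B1, B2, B3, hBa, hB, hB1, hB2, hB3,
          Or.inr (Or.inl ⟨rfl, rfl, by omega, by omega⟩), ?_⟩
        intro L hL g hg ht
        apply hL
        apply eq_top_of_le
        apply alt_le_B ht hg (hB.conj g)
        · rw [Finset.card_image_of_injective _ g.injective, hB1]
        · rw [Finset.card_image_of_injective _ g.injective, hB2]
          decide
        · rw [Finset.card_image_of_injective _ g.injective, hB3]
          exact ⟨w - 5, by omega⟩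
        · rw [Finset.card_image_of_injective _ g.injective, hB2]
          decide
        · rw [Finset.card_image_of_injective _ g.injective, hB3]
          omega
        · intro h
          omega
      · obtain ⟨B, B1, B2, B3, hBa, hB, hB1, hB2, hB3⟩ := exists_tri (α := α) (a := 3) (b := 5)
          (c := Fintype.card α - 8) (by omega) (by omega) (by omega) (by omega) ho
        refine ⟨3, 5, Fintype.card α - 8, B, B1, B2, B3, hBa, hB, hB1, hB2, hB3,
          Or.inl ⟨rfl, rfl, by omega, by omega⟩, ?_⟩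
        intro L hL g hg ht
        apply hL
        apply eq_top_of_le
        apply alt_le_B ht hg (hB.conj g)
        · rw [Finset.card_image_of_injective _ g.injective, hB1]
        · rw [Finset.card_image_of_injective _ g.injective, hB2]
          decide
        · rw [Finset.card_image_of_injective _ g.injective, hB3]
          exact ⟨w - 4, by omega⟩
        · rw [Finset.card_image_of_injective _ g.injective, hB2]
          decide
        · rw [Finset.card_image_of_injective _ g.injective, hB3]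
          omega
        · intro h
          rw [Finset.card_image_of_injective _ g.injective, Finset.card_image_of_injective _ g.injective, hB2, hB3]
          omega
  have hAtop : ∀ L : Subgroup ↥(alternatingGroup α), L ≠ ⊤ → ∀ g : Perm α,
      g * A * g⁻¹ ∈ L.map (alternatingGroup α).subtype → ¬ Tr (L.map (alternatingGroup α).subtype) := by
    intro L hL g hg ht
    apply hL
    apply eq_top_of_le
    apply alt_le_A ht hg (hA.conj g) _ _ hn ho
    · rw [Finset.card_image_of_injective _ g.injective, hA1]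
    · rw [Finset.card_image_of_injective _ g.injective, hA2]
  have hCtr : ∀ L : Subgroup ↥(alternatingGroup α), ∀ g : Perm α,
      g * C * g⁻¹ ∈ L.map (alternatingGroup α).subtype → Tr (L.map (alternatingGroup α).subtype) := by
    intro L g hg x y
    have h1 := cy_image hC g
    rw [Finset.image_univ_of_surjective g.surjective] at h1
    obtain ⟨k, -, hk⟩ := h1.exists_pow_eq (Finset.mem_coe.2 (Finset.mem_univ x)) (Finset.mem_coe.2 (Finset.mem_univ y))
    exact ⟨_, Subgroup.pow_mem _ hg k, hk⟩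
  refine noTwo_of_three (x := ⟨A, hAa⟩) (y := ⟨B, hBa⟩) (z := ⟨C, hCa⟩) ?_ ?_ ?_
  · intro L hL
    by_contra hcon
    rw [not_or] at hcon
    obtain ⟨g, hg⟩ := exists_conj hcon.1
    obtain ⟨k, hk⟩ := exists_conj hcon.2
    obtain ⟨D, hD0, hD1, hD⟩ := exists_orbit (hAtop L hL g hg)
    have h1 := inv_card (hA.conj g) (hD _ hg)
    have h2 := inv_card (hB.conj k) (hD _ hk)
    rw [Finset.card_image_of_injective _ g.injective, Finset.card_image_of_injective _ g.injective,
      Finset.card_image_of_injective _ g.injective, hA1, hA2, hA3] at h1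
    rw [Finset.card_image_of_injective _ k.injective, Finset.card_image_of_injective _ k.injective,
      Finset.card_image_of_injective _ k.injective, hB1, hB2, hB3] at h2
    obtain ⟨w, hw⟩ := ho
    rcases hb with ⟨rfl, rfl, hb3, hb⟩ | ⟨rfl, rfl, hb3, hb⟩ | ⟨rfl, rfl, hb3, hb⟩ <;>
      split_ifs at h1 h2 <;> omega
  · intro L hL
    by_contra hcon
    rw [not_or] at hcon
    obtain ⟨g, hg⟩ := exists_conj hcon.1
    obtain ⟨k, hk⟩ := exists_conj hcon.2
    exact hBtop L hL g hg (hCtr L k hk)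
  · intro L hL
    by_contra hcon
    rw [not_or] at hcon
    obtain ⟨g, hg⟩ := exists_conj hcon.1
    obtain ⟨k, hk⟩ := exists_conj hcon.2
    exact hAtop L hL g hg (hCtr L k hk)

end

/-- **the alternating groups of odd degree `≥ 11`** have no normal `2`-covering -/
theorem noTwo_alt_odd {n : ℕ} (hn : 11 ≤ n) (ho : Odd n) : NoTwo ↥(alternatingGroup (Fin n)) :=
  main (by rw [Fintype.card_fin]; exact hn) (by rw [Fintype.card_fin]; exact ho)

end Cfsg.Agent.H502.Cov
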